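/-
Homomorphisms out of a small finite group from a multiplication-free table: normal forms and a rewriting system.
-/
import Mathlib

set_option autoImplicit false

namespace CfsgLib.T3

variable {ι : Type}

/-- Value of a word. -/
def evalW {G : Type*} [Monoid G] (g : ι → G) (l : List ι) : G := (l.map g).prod

@[simp] theorem evalW_nil {G : Type*} [Monoid G] (g : ι → G) : evalW g [] = 1 := rfl

@[simp] theorem evalW_cons {G : Type*} [Monoid G] (g : ι → G) (i : ι) (l : List ι) :
    evalW g (i :: l) = g i * evalW g l := by simp [evalW]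

theorem evalW_append {G : Type*} [Monoid G] (g : ι → G) (l m : List ι) :
    evalW g (l ++ m) = evalW g l * evalW g m := by simp [evalW]

theorem evalW_map {G H : Type*} [Monoid G] [Monoid H] (f : G →* H) (g : ι → G) (l : List ι) :
    f (evalW g l) = evalW (fun i => f (g i)) l := by
  induction l with
  | nil => simp
  | cons a l ih => simp [ih]

variable [DecidableEq ι]

/-- Rewrite at the head. -/
def rwHead (r : List ι × List ι) (l : List ι) : Option (List ι) :=
  if r.1 <+: l then some (r.2 ++ l.drop r.1.length) else none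

/-- Rewrite once, at the leftmost position possible. -/
def rw1 (R : List (List ι × List ι)) : List ι → Option (List ι)
  | [] => none
  | x :: xs =>
    match R.findSome? (fun r => rwHead r (x :: xs)) with
    | some l' => some l'
    | none => (rw1 R xs).map (x :: ·)

/-- Iterate the rewriting. -/
def nfw (R : List (List ι × List ι)) : ℕ → List ι → List ι
  | 0, l => l
  | n + 1, l =>
    match rw1 R l with
    | some l' => nfw R n l'
    | none => l

section
variable {G : Type*} [Monoid G] (g : ι → G)

theorem evalW_rwHead {r : List ι × List ι} (hr : evalW g r.1 = evalW g r.2) {l l' : List ι}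
    (h : rwHead r l = some l') : evalW g l' = evalW g l := by
  unfold rwHead at h
  split_ifs at h with hp
  · obtain ⟨t, rfl⟩ := hp
    simp only [Option.some.injEq] at h
    subst h
    simp [evalW_append, hr]

theorem evalW_rw1 {R : List (List ι × List ι)} (hR : ∀ r ∈ R, evalW g r.1 = evalW g r.2) :
    ∀ {l l' : List ι}, rw1 R l = some l' → evalW g l' = evalW g l := by
  intro l
  induction l with
  | nil => intro l' h; simp [rw1] at h
  | cons x xs ih =>
    intro l' h
    simp only [rw1] at h
    split at h
    · rename_i y hy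
      simp only [Option.some.injEq] at h
      subst h
      obtain ⟨r, hr, hr2⟩ := List.exists_of_findSome?_eq_some hy
      exact evalW_rwHead g (hR r hr) hr2
    · simp only [Option.map_eq_some_iff] at h
      obtain ⟨t, ht, rfl⟩ := h
      simp [ih ht]

theorem evalW_nfw {R : List (List ι × List ι)} (hR : ∀ r ∈ R, evalW g r.1 = evalW g r.2) (n : ℕ) (l : List ι) :
    evalW g (nfw R n l) = evalW g l := by
  induction n generalizing l with
  | zero => rfl
  | succ n ih =>
    simp only [nfw]
    split
    · rename_i l' h
      rw [ih, evalW_rw1 g hR h]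
    · rfl

end

/-- Build a homomorphism from a table of normal forms and a rewriting system valid in the target. -/
theorem exists_hom_of_rules {S G : Type*} [Group S] [Group G] (s : ι → S) (g : ι → G)
    (R : List (List ι × List ι)) (hR : ∀ r ∈ R, evalW g r.1 = evalW g r.2)
    (tbl : List (List ι)) (fuel : ℕ) (hnil : [] ∈ tbl)
    (cover : ∀ τ : S, ∃ l ∈ tbl, evalW s l = τ)
    (huniq : ∀ l ∈ tbl, ∀ l' ∈ tbl, evalW s l = evalW s l' → l = l')
    (hstep : ∀ l ∈ tbl, ∀ i, nfw R fuel (i :: l) ∈ tbl ∧ evalW s (nfw R fuel (i :: l)) = s i * evalW s l) :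
    ∃ φ : S →* G, (∀ i, φ (s i) = g i) ∧ ∀ τ, ∃ l, φ τ = evalW g l ∧ τ = evalW s l := by
  classical
  choose nf hnf1 hnf2 using cover
  have hnf3 : ∀ l ∈ tbl, nf (evalW s l) = l := fun l hl => huniq _ (hnf1 _) _ hl (hnf2 _)
  have hone : nf 1 = [] := hnf3 [] hnil
  have hs : ∀ i τ, evalW g (nf (s i * τ)) = g i * evalW g (nf τ) := by
    intro i τ
    obtain ⟨h1, h2⟩ := hstep (nf τ) (hnf1 τ) i
    rw [hnf2] at h2
    rw [← h2, hnf3 _ h1, evalW_nfw g hR, evalW_cons]
  have hw : ∀ (l : List ι) (τ : S), evalW g (nf (evalW s l * τ)) = evalW g l * evalW g (nf τ) := by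
    intro l
    induction l with
    | nil => intro τ; simp
    | cons a l ih =>
      intro τ
      rw [evalW_cons, mul_assoc, hs, ih, evalW_cons, mul_assoc]
  refine ⟨MonoidHom.mk' (fun τ => evalW g (nf τ)) ?_, ?_, ?_⟩
  · intro a b
    have := hw (nf a) b
    rwa [hnf2] at this
  · intro i
    show evalW g (nf (s i)) = g i
    have := hs i 1
    rw [mul_one, hone] at this
    simpa using this
  · intro τ
    exact ⟨nf τ, rfl, (hnf2 τ).symm⟩

end CfsgLib.T3
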