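/-
Large extraspecial-type subgroups: the centre of any 2-overgroup.
-/
import Mathlib

set_option autoImplicit false

namespace CfsgLib.T3

variable {G : Type*} [Group G] [Finite G]

/-- If `Q` is a 2-subgroup with self-centralising property whose centre has order 2, the centre of any
2-overgroup `T` consists of `1` and the generator `z` of the centre of `Q`. -/
theorem center_overgroup {Q T : Subgroup G} (hQ : Subgroup.centralizer (Q : Set G) ≤ Q)
    (hZ : Nat.card (Subgroup.center Q) = 2) {z : G} (hzQ : z ∈ Q) (hz1 : z ≠ 1)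
    (hzc : ∀ q ∈ Q, q * z = z * q) (hQT : Q ≤ T) (hT : IsPGroup 2 T) :
    (∀ t ∈ T, t * z = z * t) ∧ ∀ x ∈ T, (∀ t ∈ T, t * x = x * t) → x = 1 ∨ x = z := by
  classical
  -- elements of the centre of `T` are in the centre of `Q`
  have hzmem : (⟨z, hzQ⟩ : Q) ∈ Subgroup.center Q := by
    rw [Subgroup.mem_center_iff]
    rintro ⟨q, hq⟩
    apply Subtype.ext
    exact hzc q hq
  have key : ∀ x ∈ T, (∀ t ∈ T, t * x = x * t) → x = 1 ∨ x = z := by
    intro x _ hx
    have hxc : x ∈ Subgroup.centralizer (Q : Set G) := by
      rw [Subgroup.mem_centralizer_iff]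
      intro q hq
      exact (hx q (hQT hq))
    have hxQ : x ∈ Q := hQ hxc
    have hxz : (⟨x, hxQ⟩ : Q) ∈ Subgroup.center Q := by
      rw [Subgroup.mem_center_iff]
      rintro ⟨q, hq⟩
      apply Subtype.ext
      exact hx q (hQT hq)
    -- the centre has exactly two elements
    have hcard : Nat.card (Subgroup.center Q) = 2 := hZ
    by_contra hn
    rw [not_or] at hn
    have h3 : Set.ncard ({1, ⟨⟨z, hzQ⟩, hzmem⟩, ⟨⟨x, hxQ⟩, hxz⟩} : Set (Subgroup.center Q)) = 3 := by
      rw [Set.ncard_eq_toFinset_card']
      simp only [Set.toFinset_insert, Set.toFinset_singleton]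
      rw [Finset.card_insert_of_notMem, Finset.card_insert_of_notMem, Finset.card_singleton]
      · simp only [Finset.mem_singleton, Subtype.mk.injEq]
        exact fun h => hn.2 h.symm
      · simp only [Finset.mem_insert, Finset.mem_singleton, not_or]
        constructor
        · intro h
          have := congrArg (fun y : Subgroup.center Q => ((y : Q) : G)) h
          exact hz1 this.symm
        · intro h
          have := congrArg (fun y : Subgroup.center Q => ((y : Q) : G)) h
          exact hn.1 this.symm
    have h4 := Set.ncard_le_card ({1, ⟨⟨z, hzQ⟩, hzmem⟩, ⟨⟨x, hxQ⟩, hxz⟩} : Set (Subgroup.center Q))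
    omega
  refine ⟨?_, key⟩
  -- the centre of `T` is nontrivial; its nontrivial element must be `z`
  have hne : Nontrivial T := by
    refine ⟨⟨⟨z, hQT hzQ⟩, 1, ?_⟩⟩
    intro h
    exact hz1 (congrArg Subtype.val h)
  have hcn := hT.center_nontrivial
  obtain ⟨y, hy⟩ := exists_ne (1 : Subgroup.center T)
  have hy0 : ((y : T) : G) ≠ 1 := by
    intro h
    apply hy
    apply Subtype.ext
    apply Subtype.ext
    exact h
  have hyc : ∀ t ∈ T, t * ((y : T) : G) = ((y : T) : G) * t := by
    intro t ht
    have := (Subgroup.mem_center_iff.1 y.2) ⟨t, ht⟩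
    exact congrArg Subtype.val this
  rcases key _ (y : T).2 hyc with h | h
  · exact absurd h hy0
  · rw [← h]; exact hyc

end CfsgLib.T3
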